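import Mathlib

/-!
# Data of a coset enumeration
-/

set_option autoImplicit false

namespace Cfsg.Agent.Lib.KnownSimple.MultM.M11

/-- Generated data. -/
def par0 : ℕ := 0x3eb1a200
/-- Generated data. -/
def gix0 : ℕ := 0xcc
/-- Generated data. -/
def dp0 : ℕ := 0x2c8da448
/-- Generated data. -/
def fa0 : ℕ := 0x98876543219765432100
/-- Generated data. -/
def fl0 : ℕ := 0x59a66
/-- Generated data. -/
def fb0 : ℕ := 0x79654321008987654321
/-- Generated data. -/
def fk0 : ℕ := 0x4d36936a0000000
/-- Generated data. -/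
def po0 : ℕ := 0x9460f7358b524000000000000
/-- Generated data. -/
def pc0 : ℕ := 0x11111111119000000000
/-- Generated data. -/
def pa0 : ℕ := 0x424e62906208106208019d6f
/-- Generated data. -/
def can0 : ℕ := 0x9876543210
/-- Generated data. -/
def tb0_0 : ℕ := 0x7698325401
/-- Generated data. -/
def fi0_0 : ℕ := 0x27141dcd20d40
/-- Generated data. -/
def tb0_1 : ℕ := 0x8954761032
/-- Generated data. -/
def fi0_1 : ℕ := 0x13283cc562c41

end Cfsg.Agent.Lib.KnownSimple.MultM.M11
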