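import Mathlib

/-!
# Data of a coset enumeration
-/

set_option autoImplicit false

namespace Cfsg.Agent.Lib.KnownSimple.MultM.M11

/-- Generated data. -/
def par1 : ℕ := 0x3e50
/-- Generated data. -/
def gix1 : ℕ := 0x2148
/-- Generated data. -/
def dp1 : ℕ := 0x3fa4
/-- Generated data. -/
def fa1 : ℕ := 0xdab454d6b68a200
/-- Generated data. -/
def fl1 : ℕ := 0x40400100080e3000808200040820008080
/-- Generated data. -/
def fb1 : ℕ := 0x759212d76b1a440
/-- Generated data. -/
def fk1 : ℕ := 0x43232438769000050011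
/-- Generated data. -/
def po1 : ℕ := 0xd33cb1c2fb6260f145145140000000
/-- Generated data. -/
def pc1 : ℕ := 0x1111112ba9a000050000
/-- Generated data. -/
def pa1 : ℕ := 0x10939462618c310455be7051e0a208022adf39c1441957193944100402ae26204a7
/-- Generated data. -/
def can1 : ℕ := 0x35688
/-- Generated data. -/
def tb1_0 : ℕ := 0x2b850
/-- Generated data. -/
def fi1_0 : ℕ := 0x1713bc60
/-- Generated data. -/
def tb1_1 : ℕ := 0x25298
/-- Generated data. -/
def fi1_1 : ℕ := 0x249834a1
/-- Generated data. -/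
def tb1_2 : ℕ := 0x1ca81
/-- Generated data. -/
def fi1_2 : ℕ := 0x26a411c2

end Cfsg.Agent.Lib.KnownSimple.MultM.M11
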