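import Mathlib

/-!
# Data of a coset enumeration
-/

set_option autoImplicit false

namespace Cfsg.Agent.Lib.KnownSimple.MultM.M11

/-- Generated data. -/
def par2 : ℕ := 0x7d6c6d2240
/-- Generated data. -/
def gix2 : ℕ := 0xb6894c
/-- Generated data. -/
def dp2 : ℕ := 0x49246db488
/-- Generated data. -/
def fa2 : ℕ := 0xcbb9977766554321ccc799948bb655436443522312110000
/-- Generated data. -/
def fl2 : ℕ := 0x8002020c101060018202040030608080078c002c60c082060410202001800008083020c0020608080
/-- Generated data. -/
def fb2 : ℕ := 0x769c5c3b4392211079cc5ab44b7ba9876466554332211000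
/-- Generated data. -/
def fk2 : ℕ := 0x1104419483288a418c45820c02c1a4949c0000005a5e03800c0281100421
/-- Generated data. -/
def po2 : ℕ := 0x807f7e7d7c7b7a79787776757473727169645b5b595046443b33292929292929241f17171212120d0d08080000000000
/-- Generated data. -/
def pc2 : ℕ := 0x1111111111111111859029a298a000005580500505080000
/-- Generated data. -/
def pa2 : ℕ := 0x38a32f24fa0a9a63651238a1bae203893d1878819a72e2aca45e5cebe759a45944f048d567916513c1228f86aba289b79886aa1f6a86922893e1aa87d83893d97d885a48c4db6d84596922860801cf6542892d53860c73ca1811cb1830450c50c7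
/-- Generated data. -/
def can2 : ℕ := 0xcb976543210
/-- Generated data. -/
def tb2_0 : ℕ := 0x789a3546120
/-- Generated data. -/
def fi2_0 : ℕ := 0x2fb597262ce321140
/-- Generated data. -/
def tb2_1 : ℕ := 0xa7596821430
/-- Generated data. -/
def fi2_1 : ℕ := 0x1d56ba0f4a38891c1
/-- Generated data. -/
def tb2_2 : ℕ := 0x86a39247510
/-- Generated data. -/
def fi2_2 : ℕ := 0x1ebaca5491840a102
/-- Generated data. -/
def tb2_3 : ℕ := 0x795a4863201
/-- Generated data. -/
def fi2_3 : ℕ := 0x1f59baa794d206803

end Cfsg.Agent.Lib.KnownSimple.MultM.M11
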