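import Cfsg.Agent.Lib.KnownSimple.MultM.M11.CertAll

/-!
# The Schur multiplier
-/

set_option autoImplicit false

namespace Cfsg.Agent.Lib.KnownSimple.MultM.M11

open Cfsg Cfsg.Spor Cfsg.Agent.Lib.Compute Cfsg.Agent.Lib.KnownSimple.PE Cfsg.Agent.Lib.KnownSimple.Leech
open Cfsg.Agent.Lib.KnownSimple Cfsg.Agent.Lib.KnownSimple.AutRigid Cfsg.Agent.Lib.KnownSimple.Pres
open Cfsg.Agent.Lib.KnownSimple.MultC
open Cfsg.Agent.Lib.Golay Cfsg.Agent.Lib.KnownSimple.CodeCalc Cfsg.Agent.Lib.KnownSimple.MathieuData Cfsg.Agent.Lib.KnownSimple.MathieuFacts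
open Cfsg.Agent.Lib.KnownSimple.MathieuGen Cfsg.Agent.Lib.KnownSimple.MathieuOut Cfsg.Agent.Lib.KnownSimple.MultM

theorem hMF : MF (stabOf ρ h0) :=
  MF_stab_of_squarefree htr (c := 55) (by rw [card_P]; rfl) (sq_of_chk (by norm_num) (by decide +kernel))

theorem upperP (Γ : Type) [Group Γ] [Finite Γ] (σ : Γ →* P) (hσ : IsStemExtension σ) :
    ∃ π : Multiplicative (ZMod 1) →* σ.ker, Function.Surjective π :=
  upper C hP A B hcomm hρ htr hMF hrr.1 hrr.2 rfl hokR hloopR (qs := 0) (m := 1) (by decide +kernel) hcert Γ σ hσ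

theorem multP : HasCyclicSchurMultiplier P 1 := hasCyclic_one_of upperP

theorem mult : HasCyclicSchurMultiplier ↥M11 1 := hasSchur_congr e multP

theorem mf : MF ↥M11 := (MF_of_upper hP A B hcomm upperP).congr e

end Cfsg.Agent.Lib.KnownSimple.MultM.M11
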