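import Cfsg.Agent.Lib.KnownSimple.MultM.M11.Bound
import Cfsg.Agent.Lib.KnownSimple.MultM.Math
import Cfsg.Agent.Lib.KnownSimple.MultC.Glue

/-!
# The natural representation
-/

set_option autoImplicit false

namespace Cfsg.Agent.Lib.KnownSimple.MultM.M11

open Cfsg Cfsg.Spor Cfsg.Agent.Lib.Compute Cfsg.Agent.Lib.KnownSimple.PE Cfsg.Agent.Lib.KnownSimple.Leech
open Cfsg.Agent.Lib.KnownSimple Cfsg.Agent.Lib.KnownSimple.AutRigid Cfsg.Agent.Lib.KnownSimple.Pres
open Cfsg.Agent.Lib.KnownSimple.MultC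
open Cfsg.Agent.Lib.Golay Cfsg.Agent.Lib.KnownSimple.CodeCalc Cfsg.Agent.Lib.KnownSimple.MathieuData Cfsg.Agent.Lib.KnownSimple.MathieuFacts
open Cfsg.Agent.Lib.KnownSimple.MathieuGen Cfsg.Agent.Lib.KnownSimple.MathieuOut Cfsg.Agent.Lib.KnownSimple.MultM

abbrev d : ℕ := 5
set_option maxHeartbeats 0 in
theorem hP : IsPres d v (stdRels S) := isPres_std S (by decide +kernel)
/-- The letters. -/
def cs : List ℕ := [632593900325713599402036561560801472,316310121680604822509774300621420096,965346966670364367458681901213092896,609715361036897732930450502224972288,944569772236290697579231267829188640]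
theorem hK : cs.all tM11 = true := by decide +kernel
theorem hCN : chkCoset (tauC cs) d 24 = true := by decide +kernel
/-- The natural table. -/
noncomputable def CN : Coset d 24 := mkCoset (tauC cs) hCN
abbrev N0 : ℕ := 24
set_option maxHeartbeats 0 in
theorem hok : ∀ r ∈ stdRels S, ∀ l ∈ r, l < 2 * d := words_of_chk (by decide +kernel)
set_option maxHeartbeats 0 in
theorem hl0 : ∀ r ∈ stdRels S, ∀ i, i < 24 → actW CN.τ r i = i := loops_of_chk (by decide +kernel)
theorem ex0 : ∃ ρ : P →* Equiv.Perm (Fin 24), ∀ x, x < d → ρ (v x) = (CN.p x)⁻¹ := exists_rho hP CN hok hl0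
/-- The natural representation. -/
noncomputable def ρ0 : P →* Equiv.Perm (Fin 24) := ex0.choose
theorem hρ0 : ∀ x, x < d → ρ0 (v x) = (CN.p x)⁻¹ := ex0.choose_spec
/-- The natural representation. -/
noncomputable def ψ : P →* Equiv.Perm GolayPt := toX enc ρ0
theorem hmem : ∀ x, x < d → ψ (v x) ∈ M11 := by
  intro x hx
  have hc : lg 0 cs x ∈ cs := lg_mem (by
    have e : cs.length = d := by decide +kernel
    rw [e]
    exact hx)
  have ht := chk_of_all hK hc
  have ht1 := (and_of_bcond ht).1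
  show toX enc ρ0 (v x) ∈ M11
  rw [← letter_eq CN rfl hρ0 hx (perm_of_t (t24_of_12 ht1))]
  exact mem_of_t11 ht
/-- A word. -/
def wU : List ℕ := [2,8,2,4,6]
/-- A word. -/
def wX : List ℕ := [2,6,2,8,4,8,4]
/-- A word. -/
def wY : List ℕ := [6,2,0,2,8,4,2,8]
theorem rU : U = ψ (ev v wU) := toX_word enc CN hρ0 (by decide +kernel) code_U (by decide +kernel)
theorem rX : X = ψ (ev v wX) := toX_word enc CN hρ0 (by decide +kernel) code_X (by decide +kernel)
theorem rY : Y4' = ψ (ev v wY) := toX_word enc CN hρ0 (by decide +kernel) code_Y4' (by decide +kernel)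
theorem hTr : ∀ t ∈ ({U, X, Y4'} : Set P24), t ∈ ψ.range := by
  rintro t (rfl | rfl | rfl)
  · exact ⟨_, rU.symm⟩
  · exact ⟨_, rX.symm⟩
  · exact ⟨_, rY.symm⟩
theorem hle : Nat.card P ≤ Nat.card ↥M11 := by
  rw [card_M11]
  exact finite_P.2
theorem ex_e : ∃ e : P ≃* ↥M11, ∀ u, (e u : P24) = ψ u := exists_equiv hP ψ M11 hmem _ gen_M11 hTr hle
/-- The isomorphism. -/
noncomputable def e : P ≃* ↥M11 := ex_e.choose
theorem he : ∀ u, (e u : P24) = ψ u := ex_e.choose_spec
theorem hψinj : Function.Injective ψ := fun a b h => e.injective (Subtype.ext (by rw [he, he, h]))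
theorem hρ0inj : Function.Injective ρ0 := inj_of_toX enc hψinj
theorem card_P : Nat.card P = 7920 := by
  rw [Nat.card_congr e.toEquiv, card_M11]

end Cfsg.Agent.Lib.KnownSimple.MultM.M11
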