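import Cfsg.Agent.Lib.KnownSimple.MultM.M11.Nat
import Cfsg.Agent.Lib.KnownSimple.MultM.M11.TabD

/-!
# The table of the letters
-/

set_option autoImplicit false

namespace Cfsg.Agent.Lib.KnownSimple.MultM.M11

open Cfsg Cfsg.Spor Cfsg.Agent.Lib.Compute Cfsg.Agent.Lib.KnownSimple.PE Cfsg.Agent.Lib.KnownSimple.Leech
open Cfsg.Agent.Lib.KnownSimple Cfsg.Agent.Lib.KnownSimple.AutRigid Cfsg.Agent.Lib.KnownSimple.Pres
open Cfsg.Agent.Lib.KnownSimple.MultC
open Cfsg.Agent.Lib.Golay Cfsg.Agent.Lib.KnownSimple.CodeCalc Cfsg.Agent.Lib.KnownSimple.MathieuData Cfsg.Agent.Lib.KnownSimple.MathieuFacts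
open Cfsg.Agent.Lib.KnownSimple.MathieuGen Cfsg.Agent.Lib.KnownSimple.MathieuOut Cfsg.Agent.Lib.KnownSimple.MultM

/-- The number of points. -/
abbrev n : ℕ := 144
theorem h0 : 0 < n := by norm_num
/-- The table of the letters. -/
noncomputable abbrev τ : ℕ → ℕ → ℕ := tauOf d tb
set_option maxHeartbeats 0 in
set_option maxRecDepth 100000 in
theorem hC : chkCoset τ d n = true := by decide +kernel
/-- The permutations of the letters. -/
noncomputable def C : Coset d n := mkCoset τ hC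
set_option maxHeartbeats 0 in
set_option maxRecDepth 100000 in
theorem hloopS : ∀ r ∈ stdRels S, ∀ i, i < n → actW C.τ r i = i := loops_of_chk (by decide +kernel)
theorem exρ : ∃ ρ : P →* Equiv.Perm (Fin n), ∀ x, x < d → ρ (v x) = (C.p x)⁻¹ := exists_rho hP C hok hloopS
/-- The representation on the points. -/
noncomputable def ρ : P →* Equiv.Perm (Fin n) := exρ.choose
theorem hρ : ∀ x, x < d → ρ (v x) = (C.p x)⁻¹ := exρ.choose_spec
set_option maxHeartbeats 0 in
set_option maxRecDepth 100000 in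
theorem hTree : chkTree τ d n (lg 0 parL) (lg 0 genL) = true := by decide +kernel
theorem htr : ∀ i (hi : i < n), ∃ u : P, (ρ u)⁻¹ ⟨0, h0⟩ = ⟨i, hi⟩ := fun i hi => trans_of_tree C hρ hTree i hi

end Cfsg.Agent.Lib.KnownSimple.MultM.M11
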